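import Cfsg.Agent.Helper28.U6T.Data

set_option autoImplicit false

namespace Cfsg.Agent.Helper28.U6T

theorem rel_8 : Cfsg.Agent.Helper28.ptChunk (Cfsg.Agent.Helper28.relPt T relL) 12672 256 8 = true := by decide +kernel

theorem rel_9 : Cfsg.Agent.Helper28.ptChunk (Cfsg.Agent.Helper28.relPt T relL) 12672 256 9 = true := by decide +kernel

theorem rel_10 : Cfsg.Agent.Helper28.ptChunk (Cfsg.Agent.Helper28.relPt T relL) 12672 256 10 = true := by decide +kernel

theorem rel_11 : Cfsg.Agent.Helper28.ptChunk (Cfsg.Agent.Helper28.relPt T relL) 12672 256 11 = true := by decide +kernel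

theorem rel_12 : Cfsg.Agent.Helper28.ptChunk (Cfsg.Agent.Helper28.relPt T relL) 12672 256 12 = true := by decide +kernel

theorem rel_13 : Cfsg.Agent.Helper28.ptChunk (Cfsg.Agent.Helper28.relPt T relL) 12672 256 13 = true := by decide +kernel

theorem rel_14 : Cfsg.Agent.Helper28.ptChunk (Cfsg.Agent.Helper28.relPt T relL) 12672 256 14 = true := by decide +kernel

theorem rel_15 : Cfsg.Agent.Helper28.ptChunk (Cfsg.Agent.Helper28.relPt T relL) 12672 256 15 = true := by decide +kernel

end Cfsg.Agent.Helper28.U6T
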