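import Cfsg.Agent.Helper28.U6T.Data

set_option autoImplicit false

namespace Cfsg.Agent.Helper28.U6T

theorem rel_16 : Cfsg.Agent.Helper28.ptChunk (Cfsg.Agent.Helper28.relPt T relL) 12672 256 16 = true := by decide +kernel

theorem rel_17 : Cfsg.Agent.Helper28.ptChunk (Cfsg.Agent.Helper28.relPt T relL) 12672 256 17 = true := by decide +kernel

theorem rel_18 : Cfsg.Agent.Helper28.ptChunk (Cfsg.Agent.Helper28.relPt T relL) 12672 256 18 = true := by decide +kernel

theorem rel_19 : Cfsg.Agent.Helper28.ptChunk (Cfsg.Agent.Helper28.relPt T relL) 12672 256 19 = true := by decide +kernel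

theorem rel_20 : Cfsg.Agent.Helper28.ptChunk (Cfsg.Agent.Helper28.relPt T relL) 12672 256 20 = true := by decide +kernel

theorem rel_21 : Cfsg.Agent.Helper28.ptChunk (Cfsg.Agent.Helper28.relPt T relL) 12672 256 21 = true := by decide +kernel

theorem rel_22 : Cfsg.Agent.Helper28.ptChunk (Cfsg.Agent.Helper28.relPt T relL) 12672 256 22 = true := by decide +kernel

theorem rel_23 : Cfsg.Agent.Helper28.ptChunk (Cfsg.Agent.Helper28.relPt T relL) 12672 256 23 = true := by decide +kernel

end Cfsg.Agent.Helper28.U6T
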