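import Cfsg.Agent.Helper28.U6T.Data

set_option autoImplicit false

namespace Cfsg.Agent.Helper28.U6T

theorem rel_24 : Cfsg.Agent.Helper28.ptChunk (Cfsg.Agent.Helper28.relPt T relL) 12672 256 24 = true := by decide +kernel

theorem rel_25 : Cfsg.Agent.Helper28.ptChunk (Cfsg.Agent.Helper28.relPt T relL) 12672 256 25 = true := by decide +kernel

theorem rel_26 : Cfsg.Agent.Helper28.ptChunk (Cfsg.Agent.Helper28.relPt T relL) 12672 256 26 = true := by decide +kernel

theorem rel_27 : Cfsg.Agent.Helper28.ptChunk (Cfsg.Agent.Helper28.relPt T relL) 12672 256 27 = true := by decide +kernel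

theorem rel_28 : Cfsg.Agent.Helper28.ptChunk (Cfsg.Agent.Helper28.relPt T relL) 12672 256 28 = true := by decide +kernel

theorem rel_29 : Cfsg.Agent.Helper28.ptChunk (Cfsg.Agent.Helper28.relPt T relL) 12672 256 29 = true := by decide +kernel

theorem rel_30 : Cfsg.Agent.Helper28.ptChunk (Cfsg.Agent.Helper28.relPt T relL) 12672 256 30 = true := by decide +kernel

theorem rel_31 : Cfsg.Agent.Helper28.ptChunk (Cfsg.Agent.Helper28.relPt T relL) 12672 256 31 = true := by decide +kernel

end Cfsg.Agent.Helper28.U6T
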