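import Cfsg.Agent.Helper28.U6T.Data

set_option autoImplicit false

namespace Cfsg.Agent.Helper28.U6T

theorem rel_32 : Cfsg.Agent.Helper28.ptChunk (Cfsg.Agent.Helper28.relPt T relL) 12672 256 32 = true := by decide +kernel

theorem rel_33 : Cfsg.Agent.Helper28.ptChunk (Cfsg.Agent.Helper28.relPt T relL) 12672 256 33 = true := by decide +kernel

theorem rel_34 : Cfsg.Agent.Helper28.ptChunk (Cfsg.Agent.Helper28.relPt T relL) 12672 256 34 = true := by decide +kernel

theorem rel_35 : Cfsg.Agent.Helper28.ptChunk (Cfsg.Agent.Helper28.relPt T relL) 12672 256 35 = true := by decide +kernel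

theorem rel_36 : Cfsg.Agent.Helper28.ptChunk (Cfsg.Agent.Helper28.relPt T relL) 12672 256 36 = true := by decide +kernel

theorem rel_37 : Cfsg.Agent.Helper28.ptChunk (Cfsg.Agent.Helper28.relPt T relL) 12672 256 37 = true := by decide +kernel

theorem rel_38 : Cfsg.Agent.Helper28.ptChunk (Cfsg.Agent.Helper28.relPt T relL) 12672 256 38 = true := by decide +kernel

theorem rel_39 : Cfsg.Agent.Helper28.ptChunk (Cfsg.Agent.Helper28.relPt T relL) 12672 256 39 = true := by decide +kernel

end Cfsg.Agent.Helper28.U6T
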