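import Cfsg.Agent.Helper28.U6T.Data

set_option autoImplicit false

namespace Cfsg.Agent.Helper28.U6T

theorem rows_24 : Cfsg.Agent.Helper28.ptChunk (Cfsg.Agent.Helper28.rowChk D) 13772 512 24 = true := by decide +kernel

theorem rows_25 : Cfsg.Agent.Helper28.ptChunk (Cfsg.Agent.Helper28.rowChk D) 13772 512 25 = true := by decide +kernel

theorem rows_26 : Cfsg.Agent.Helper28.ptChunk (Cfsg.Agent.Helper28.rowChk D) 13772 512 26 = true := by decide +kernel

end Cfsg.Agent.Helper28.U6T
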