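import Cfsg.Agent.Helper28.U6T.Rows0
import Cfsg.Agent.Helper28.U6T.Rows1
import Cfsg.Agent.Helper28.U6T.Rows2
import Cfsg.Agent.Helper28.U6T.Rows3
import Cfsg.Agent.Helper28.U6T.Fin0
import Cfsg.Agent.Helper28.U6T.Fin1
import Cfsg.Agent.Helper28.U6T.Rel0
import Cfsg.Agent.Helper28.U6T.Rel1
import Cfsg.Agent.Helper28.U6T.Rel2
import Cfsg.Agent.Helper28.U6T.Rel3
import Cfsg.Agent.Helper28.U6T.Rel4
import Cfsg.Agent.Helper28.U6T.Rel5
import Cfsg.Agent.Helper28.U6T.Rel6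

set_option autoImplicit false

namespace Cfsg.Agent.Helper28.U6T

theorem rows_all : ∀ x, x < 13772 → Cfsg.Agent.Helper28.rowChk D x = true :=
  Cfsg.Agent.Helper28.pts_of_chunks _ 13772 512 27 (by decide) (by decide)
    (Cfsg.Agent.Helper28.allLt_succ _ 26 (Cfsg.Agent.Helper28.allLt_succ _ 25 (Cfsg.Agent.Helper28.allLt_succ _ 24 (Cfsg.Agent.Helper28.allLt_succ _ 23 (Cfsg.Agent.Helper28.allLt_succ _ 22 (Cfsg.Agent.Helper28.allLt_succ _ 21 (Cfsg.Agent.Helper28.allLt_succ _ 20 (Cfsg.Agent.Helper28.allLt_succ _ 19 (Cfsg.Agent.Helper28.allLt_succ _ 18 (Cfsg.Agent.Helper28.allLt_succ _ 17 (Cfsg.Agent.Helper28.allLt_succ _ 16 (Cfsg.Agent.Helper28.allLt_succ _ 15 (Cfsg.Agent.Helper28.allLt_succ _ 14 (Cfsg.Agent.Helper28.allLt_succ _ 13 (Cfsg.Agent.Helper28.allLt_succ _ 12 (Cfsg.Agent.Helper28.allLt_succ _ 11 (Cfsg.Agent.Helper28.allLt_succ _ 10 (Cfsg.Agent.Helper28.allLt_succ _ 9 (Cfsg.Agent.Helper28.allLt_succ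 _ 8 (Cfsg.Agent.Helper28.allLt_succ _ 7 (Cfsg.Agent.Helper28.allLt_succ _ 6 (Cfsg.Agent.Helper28.allLt_succ _ 5 (Cfsg.Agent.Helper28.allLt_succ _ 4 (Cfsg.Agent.Helper28.allLt_succ _ 3 (Cfsg.Agent.Helper28.allLt_succ _ 2 (Cfsg.Agent.Helper28.allLt_succ _ 1 (Cfsg.Agent.Helper28.allLt_succ _ 0 (Cfsg.Agent.Helper28.allLt_zero _) rows_0) rows_1) rows_2) rows_3) rows_4) rows_5) rows_6) rows_7) rows_8) rows_9) rows_10) rows_11) rows_12) rows_13) rows_14) rows_15) rows_16) rows_17) rows_18) rows_19) rows_20) rows_21) rows_22) rows_23) rows_24) rows_25) rows_26)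

theorem fin_all : ∀ i, i < 12672 → Cfsg.Agent.Helper28.finPt D 12672 lv T ftp ftc i = true :=
  Cfsg.Agent.Helper28.pts_of_chunks _ 12672 1024 13 (by decide) (by decide)
    (Cfsg.Agent.Helper28.allLt_succ _ 12 (Cfsg.Agent.Helper28.allLt_succ _ 11 (Cfsg.Agent.Helper28.allLt_succ _ 10 (Cfsg.Agent.Helper28.allLt_succ _ 9 (Cfsg.Agent.Helper28.allLt_succ _ 8 (Cfsg.Agent.Helper28.allLt_succ _ 7 (Cfsg.Agent.Helper28.allLt_succ _ 6 (Cfsg.Agent.Helper28.allLt_succ _ 5 (Cfsg.Agent.Helper28.allLt_succ _ 4 (Cfsg.Agent.Helper28.allLt_succ _ 3 (Cfsg.Agent.Helper28.allLt_succ _ 2 (Cfsg.Agent.Helper28.allLt_succ _ 1 (Cfsg.Agent.Helper28.allLt_succ _ 0 (Cfsg.Agent.Helper28.allLt_zero _) fin_0) fin_1) fin_2) fin_3) fin_4) fin_5) fin_6) fin_7) fin_8) fin_9) fin_10) fin_11) fin_12)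

theorem rel_all : ∀ i, i < 12672 → Cfsg.Agent.Helper28.relPt T relL i = true :=
  Cfsg.Agent.Helper28.pts_of_chunks _ 12672 256 50 (by decide) (by decide)
    (Cfsg.Agent.Helper28.allLt_succ _ 49 (Cfsg.Agent.Helper28.allLt_succ _ 48 (Cfsg.Agent.Helper28.allLt_succ _ 47 (Cfsg.Agent.Helper28.allLt_succ _ 46 (Cfsg.Agent.Helper28.allLt_succ _ 45 (Cfsg.Agent.Helper28.allLt_succ _ 44 (Cfsg.Agent.Helper28.allLt_succ _ 43 (Cfsg.Agent.Helper28.allLt_succ _ 42 (Cfsg.Agent.Helper28.allLt_succ _ 41 (Cfsg.Agent.Helper28.allLt_succ _ 40 (Cfsg.Agent.Helper28.allLt_succ _ 39 (Cfsg.Agent.Helper28.allLt_succ _ 38 (Cfsg.Agent.Helper28.allLt_succ _ 37 (Cfsg.Agent.Helper28.allLt_succ _ 36 (Cfsg.Agent.Helper28.allLt_succ _ 35 (Cfsg.Agent.Helper28.allLt_succ _ 34 (Cfsg.Agent.Helper28.allLt_succ _ 33 (Cfsg.Agent.Helper28.allLt_succ _ 32 (Cfsg.Agent.Helper28.allLt_succ _ 31 (Cfsg.Agent.Helper28.allLt_succ _ 30 (Cfsg.Agent.Helper28.allLt_succ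 _ 29 (Cfsg.Agent.Helper28.allLt_succ _ 28 (Cfsg.Agent.Helper28.allLt_succ _ 27 (Cfsg.Agent.Helper28.allLt_succ _ 26 (Cfsg.Agent.Helper28.allLt_succ _ 25 (Cfsg.Agent.Helper28.allLt_succ _ 24 (Cfsg.Agent.Helper28.allLt_succ _ 23 (Cfsg.Agent.Helper28.allLt_succ _ 22 (Cfsg.Agent.Helper28.allLt_succ _ 21 (Cfsg.Agent.Helper28.allLt_succ _ 20 (Cfsg.Agent.Helper28.allLt_succ _ 19 (Cfsg.Agent.Helper28.allLt_succ _ 18 (Cfsg.Agent.Helper28.allLt_succ _ 17 (Cfsg.Agent.Helper28.allLt_succ _ 16 (Cfsg.Agent.Helper28.allLt_succ _ 15 (Cfsg.Agent.Helper28.allLt_succ _ 14 (Cfsg.Agent.Helper28.allLt_succ _ 13 (Cfsg.Agent.Helper28.allLt_succ _ 12 (Cfsg.Agent.Helper28.allLt_succ _ 11 (Cfsg.Agent.Helper28.allLt_succ _ 10 (Cfsg.Agent.Helper28.allLt_succ _ 9 (Cfsg.Agent.Helper28.allLt_succ _ 8 (Cfsg.Agent.Helper28.allLt_succ _ 7 (Cfsg.Agent.Helper28.allLt_succ _ 6 (Cfsg.Agent.Helper28.allLt_succ _ 5 (Cfsg.Agent.Helper28.allLt_succ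 _ 4 (Cfsg.Agent.Helper28.allLt_succ _ 3 (Cfsg.Agent.Helper28.allLt_succ _ 2 (Cfsg.Agent.Helper28.allLt_succ _ 1 (Cfsg.Agent.Helper28.allLt_succ _ 0 (Cfsg.Agent.Helper28.allLt_zero _) rel_0) rel_1) rel_2) rel_3) rel_4) rel_5) rel_6) rel_7) rel_8) rel_9) rel_10) rel_11) rel_12) rel_13) rel_14) rel_15) rel_16) rel_17) rel_18) rel_19) rel_20) rel_21) rel_22) rel_23) rel_24) rel_25) rel_26) rel_27) rel_28) rel_29) rel_30) rel_31) rel_32) rel_33) rel_34) rel_35) rel_36) rel_37) rel_38) rel_39) rel_40) rel_41) rel_42) rel_43) rel_44) rel_45) rel_46) rel_47) rel_48) rel_49)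

set_option maxRecDepth 100000 in
theorem wE_0 : Cfsg.Agent.Helper28.WordOf gen ((Cfsg.Agent.Helper28.U6.P.c * Cfsg.Agent.Helper28.U6.P.d * Cfsg.Agent.Helper28.U6.P.e * Cfsg.Agent.Helper28.U6.P.f * Cfsg.Agent.Helper28.U6.P.g * Cfsg.Agent.Helper28.U6.P.h * Cfsg.Agent.Helper28.U6.P.i) ^ 9) [1, 2, 3, 4, 5, 6, 7, 1, 2, 3, 4, 5, 6, 7, 1, 2, 3, 4, 5, 6, 7, 1, 2, 3, 4, 5, 6, 7, 1, 2, 3, 4, 5, 6, 7, 1, 2, 3, 4, 5, 6, 7, 1, 2, 3, 4, 5, 6, 7, 1, 2, 3, 4, 5, 6, 7, 1, 2, 3, 4, 5, 6, 7] := by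
  intro K _ v hv
  simp only [map_mul, map_pow, map_inv, FreeGroup.lift_apply_of, mul_inv_rev, inv_pow,
    Cfsg.Agent.Helper28.inv_of_sq _ (hv _), List.map_cons, List.map_nil, List.prod_cons, List.prod_nil, gen,
    pow_succ, pow_zero, one_mul, mul_one, mul_assoc]

set_option maxRecDepth 100000 in
theorem wE_1 : Cfsg.Agent.Helper28.WordOf gen ((Cfsg.Agent.Helper28.U6.P.d * Cfsg.Agent.Helper28.U6.P.e * Cfsg.Agent.Helper28.U6.P.f * Cfsg.Agent.Helper28.U6.P.x * Cfsg.Agent.Helper28.U6.P.i * Cfsg.Agent.Helper28.U6.P.h) ^ 5) [2, 3, 4, 0, 7, 6, 2, 3, 4, 0, 7, 6, 2, 3, 4, 0, 7, 6, 2, 3, 4, 0, 7, 6, 2, 3, 4, 0, 7, 6] := by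
  intro K _ v hv
  simp only [map_mul, map_pow, map_inv, FreeGroup.lift_apply_of, mul_inv_rev, inv_pow,
    Cfsg.Agent.Helper28.inv_of_sq _ (hv _), List.map_cons, List.map_nil, List.prod_cons, List.prod_nil, gen,
    pow_succ, pow_zero, one_mul, mul_one, mul_assoc]

set_option maxRecDepth 100000 in
theorem wE_2 : Cfsg.Agent.Helper28.WordOf gen ((Cfsg.Agent.Helper28.U6.P.h * Cfsg.Agent.Helper28.U6.P.d * Cfsg.Agent.Helper28.U6.P.e * Cfsg.Agent.Helper28.U6.P.f * Cfsg.Agent.Helper28.U6.P.x * Cfsg.Agent.Helper28.U6.P.g) ^ 5 * ((Cfsg.Agent.Helper28.U6.P.x * Cfsg.Agent.Helper28.U6.P.i * Cfsg.Agent.Helper28.U6.P.h * Cfsg.Agent.Helper28.U6.P.d * Cfsg.Agent.Helper28.U6.P.e * Cfsg.Agent.Helper28.U6.P.c) ^ 5)⁻¹) [6, 2, 3, 4, 0, 5, 6, 2, 3, 4, 0, 5, 6, 2, 3, 4, 0, 5, 6, 2, 3, 4, 0, 5, 6, 2, 3, 4, 0, 5, 1, 3, 2, 6, 7, 0, 1, 3, 2, 6, 7, 0, 1, 3, 2, 6, 7, 0, 1, 3, 2, 6, 7, 0, 1, 3, 2, 6, 7, 0] := by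
  intro K _ v hv
  simp only [map_mul, map_pow, map_inv, FreeGroup.lift_apply_of, mul_inv_rev, inv_pow,
    Cfsg.Agent.Helper28.inv_of_sq _ (hv _), List.map_cons, List.map_nil, List.prod_cons, List.prod_nil, gen,
    pow_succ, pow_zero, one_mul, mul_one, mul_assoc]

set_option maxRecDepth 100000 in
theorem wS_0 : Cfsg.Agent.Helper28.WordOf gen (Cfsg.Agent.Helper28.U6.P.c) [1] := by
  intro K _ v hv
  simp only [map_mul, map_pow, map_inv, FreeGroup.lift_apply_of, mul_inv_rev, inv_pow,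
    Cfsg.Agent.Helper28.inv_of_sq _ (hv _), List.map_cons, List.map_nil, List.prod_cons, List.prod_nil, gen,
    pow_succ, pow_zero, one_mul, mul_one, mul_assoc]

set_option maxRecDepth 100000 in
theorem wS_1 : Cfsg.Agent.Helper28.WordOf gen (Cfsg.Agent.Helper28.U6.P.d) [2] := by
  intro K _ v hv
  simp only [map_mul, map_pow, map_inv, FreeGroup.lift_apply_of, mul_inv_rev, inv_pow,
    Cfsg.Agent.Helper28.inv_of_sq _ (hv _), List.map_cons, List.map_nil, List.prod_cons, List.prod_nil, gen,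
    pow_succ, pow_zero, one_mul, mul_one, mul_assoc]

set_option maxRecDepth 100000 in
theorem wS_2 : Cfsg.Agent.Helper28.WordOf gen (Cfsg.Agent.Helper28.U6.P.e) [3] := by
  intro K _ v hv
  simp only [map_mul, map_pow, map_inv, FreeGroup.lift_apply_of, mul_inv_rev, inv_pow,
    Cfsg.Agent.Helper28.inv_of_sq _ (hv _), List.map_cons, List.map_nil, List.prod_cons, List.prod_nil, gen,
    pow_succ, pow_zero, one_mul, mul_one, mul_assoc]

set_option maxRecDepth 100000 in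
theorem wS_3 : Cfsg.Agent.Helper28.WordOf gen (Cfsg.Agent.Helper28.U6.P.f) [4] := by
  intro K _ v hv
  simp only [map_mul, map_pow, map_inv, FreeGroup.lift_apply_of, mul_inv_rev, inv_pow,
    Cfsg.Agent.Helper28.inv_of_sq _ (hv _), List.map_cons, List.map_nil, List.prod_cons, List.prod_nil, gen,
    pow_succ, pow_zero, one_mul, mul_one, mul_assoc]

set_option maxRecDepth 100000 in
theorem wS_4 : Cfsg.Agent.Helper28.WordOf gen (Cfsg.Agent.Helper28.U6.P.g) [5] := by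
  intro K _ v hv
  simp only [map_mul, map_pow, map_inv, FreeGroup.lift_apply_of, mul_inv_rev, inv_pow,
    Cfsg.Agent.Helper28.inv_of_sq _ (hv _), List.map_cons, List.map_nil, List.prod_cons, List.prod_nil, gen,
    pow_succ, pow_zero, one_mul, mul_one, mul_assoc]

set_option maxRecDepth 100000 in
theorem wS_5 : Cfsg.Agent.Helper28.WordOf gen (Cfsg.Agent.Helper28.U6.P.h) [6] := by
  intro K _ v hv
  simp only [map_mul, map_pow, map_inv, FreeGroup.lift_apply_of, mul_inv_rev, inv_pow,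
    Cfsg.Agent.Helper28.inv_of_sq _ (hv _), List.map_cons, List.map_nil, List.prod_cons, List.prod_nil, gen,
    pow_succ, pow_zero, one_mul, mul_one, mul_assoc]

set_option maxRecDepth 100000 in
theorem wS_6 : Cfsg.Agent.Helper28.WordOf gen (Cfsg.Agent.Helper28.U6.P.i) [7] := by
  intro K _ v hv
  simp only [map_mul, map_pow, map_inv, FreeGroup.lift_apply_of, mul_inv_rev, inv_pow,
    Cfsg.Agent.Helper28.inv_of_sq _ (hv _), List.map_cons, List.map_nil, List.prod_cons, List.prod_nil, gen,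
    pow_succ, pow_zero, one_mul, mul_one, mul_assoc]

theorem wE_all : List.Forall₂ (Cfsg.Agent.Helper28.WordOf gen) Cfsg.Agent.Helper28.U6.P.extra extraL := by
  unfold Cfsg.Agent.Helper28.U6.P.extra extraL
  exact List.Forall₂.cons wE_0 (List.Forall₂.cons wE_1 (List.Forall₂.cons wE_2 (List.Forall₂.nil)))

theorem wSub_l : ∀ l ∈ subL, ∃ s ∈ ({Cfsg.Agent.Helper28.U6.P.c, Cfsg.Agent.Helper28.U6.P.d, Cfsg.Agent.Helper28.U6.P.e, Cfsg.Agent.Helper28.U6.P.f, Cfsg.Agent.Helper28.U6.P.g, Cfsg.Agent.Helper28.U6.P.h, Cfsg.Agent.Helper28.U6.P.i} : Set (FreeGroup Cfsg.Agent.Helper28.U6.P.Gen)), Cfsg.Agent.Helper28.WordOf gen s l := by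
  intro l hl
  simp only [subL, List.mem_cons, List.mem_nil_iff, or_false] at hl
  rcases hl with rfl | rfl | rfl | rfl | rfl | rfl | rfl
  · exact ⟨_, by simp only [Set.mem_insert_iff, Set.mem_singleton_iff, true_or, or_true], wS_0⟩
  · exact ⟨_, by simp only [Set.mem_insert_iff, Set.mem_singleton_iff, true_or, or_true], wS_1⟩
  · exact ⟨_, by simp only [Set.mem_insert_iff, Set.mem_singleton_iff, true_or, or_true], wS_2⟩
  · exact ⟨_, by simp only [Set.mem_insert_iff, Set.mem_singleton_iff, true_or, or_true], wS_3⟩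
  · exact ⟨_, by simp only [Set.mem_insert_iff, Set.mem_singleton_iff, true_or, or_true], wS_4⟩
  · exact ⟨_, by simp only [Set.mem_insert_iff, Set.mem_singleton_iff, true_or, or_true], wS_5⟩
  · exact ⟨_, by simp only [Set.mem_insert_iff, Set.mem_singleton_iff, true_or, or_true], wS_6⟩

theorem wSub_r : ∀ s ∈ ({Cfsg.Agent.Helper28.U6.P.c, Cfsg.Agent.Helper28.U6.P.d, Cfsg.Agent.Helper28.U6.P.e, Cfsg.Agent.Helper28.U6.P.f, Cfsg.Agent.Helper28.U6.P.g, Cfsg.Agent.Helper28.U6.P.h, Cfsg.Agent.Helper28.U6.P.i} : Set (FreeGroup Cfsg.Agent.Helper28.U6.P.Gen)), ∃ l ∈ subL, Cfsg.Agent.Helper28.WordOf gen s l := by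
  intro s hs
  simp only [Set.mem_insert_iff, Set.mem_singleton_iff] at hs
  rcases hs with rfl | rfl | rfl | rfl | rfl | rfl | rfl
  · exact ⟨_, by simp only [subL, List.mem_cons, List.mem_nil_iff, true_or, or_true], wS_0⟩
  · exact ⟨_, by simp only [subL, List.mem_cons, List.mem_nil_iff, true_or, or_true], wS_1⟩
  · exact ⟨_, by simp only [subL, List.mem_cons, List.mem_nil_iff, true_or, or_true], wS_2⟩
  · exact ⟨_, by simp only [subL, List.mem_cons, List.mem_nil_iff, true_or, or_true], wS_3⟩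
  · exact ⟨_, by simp only [subL, List.mem_cons, List.mem_nil_iff, true_or, or_true], wS_4⟩
  · exact ⟨_, by simp only [subL, List.mem_cons, List.mem_nil_iff, true_or, or_true], wS_5⟩
  · exact ⟨_, by simp only [subL, List.mem_cons, List.mem_nil_iff, true_or, or_true], wS_6⟩

/-- The certificate. -/
theorem cert : Cfsg.Agent.Helper28.CoxCert Cfsg.Agent.Helper28.U6.P.edges Cfsg.Agent.Helper28.U6.P.extra
    ({Cfsg.Agent.Helper28.U6.P.c, Cfsg.Agent.Helper28.U6.P.d, Cfsg.Agent.Helper28.U6.P.e, Cfsg.Agent.Helper28.U6.P.f, Cfsg.Agent.Helper28.U6.P.g, Cfsg.Agent.Helper28.U6.P.h, Cfsg.Agent.Helper28.U6.P.i} : Set (FreeGroup Cfsg.Agent.Helper28.U6.P.Gen)) gen code D 12672 lv T pairs extraL subL where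
  hD := rfl
  hnrel := by decide +kernel
  hcode := by intro x; cases x <;> exact ⟨by decide +kernel, rfl⟩
  hcode2 := by decide +kernel
  hnode := by intro x; cases x <;> decide +kernel
  hpairs1 := by decide +kernel
  hpairs2 := by decide +kernel
  hextra1 := Cfsg.Agent.Helper28.forall2_right wE_all
  hextra2 := Cfsg.Agent.Helper28.forall2_left wE_all
  hsub1 := wSub_l
  hsub2 := wSub_r
  hletE := by decide +kernel
  hletS := by decide +kernel
  hN := Cfsg.Agent.Helper28.pad_ok D (by decide +kernel)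
  hchk := (Cfsg.Agent.Helper28.rows_ok D rows_all).1
  hchkJ := (Cfsg.Agent.Helper28.rows_ok D rows_all).2
  hfin := Cfsg.Agent.Helper28.finSem_of D 12672 lv T ftp ftc fin_all (by decide +kernel)
  hn := by decide
  hTrel := Cfsg.Agent.Helper28.rel_ok T relL 12672 rel_all
  hTsub := by decide +kernel

end Cfsg.Agent.Helper28.U6T
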